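import Cfsg.Agent.Cores.SubnormalStab
import Cfsg.Agent.CharP.Climb
import Cfsg.Agent.Eq.Def_Transfer

/-!
Bender's lemma: overgroups of a subnormal self-centralising subgroup of `F*(A)` for a maximal
subgroup `A` of a simple group.
-/

set_option autoImplicit false

open Cfsg
open scoped commutatorElement

namespace CfsgLib.Cores

variable {G : Type*} [Group G] [Finite G]

theorem pCore_meet_maximal [IsSimpleGroup G] {A : Subgroup G} (hA : IsCoatom A)
    {S : Subgroup G} (hSF : S ≤ (generalizedFittingSubgroup ↥A).map A.subtype)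
    (hSsn : (S.subgroupOf ((generalizedFittingSubgroup ↥A).map A.subtype)).IsSubnormal)
    (hSC : (generalizedFittingSubgroup ↥A).map A.subtype ⊓ Subgroup.centralizer (S : Set G) ≤ S)
    {B : Subgroup G} (hSB : S ≤ B) :
    (∀ q : ℕ, q.Prime → ¬ q ∣ Nat.card (fittingSubgroup ↥A) →
        (pCore q ↥B).map B.subtype ⊓ A = ⊥) ∧
      ∀ p : ℕ, p.Prime → p ∣ Nat.card (fittingSubgroup ↥A) → ∀ x ∈ (pCore p ↥B).map B.subtype,
        ∀ y ∈ (pResidual p ↥(generalizedFittingSubgroup ↥A)).map
          (generalizedFittingSubgroup ↥A).subtype, x * (A.subtype y) = (A.subtype y) * x := by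
  set F := generalizedFittingSubgroup ↥A with hF
  set Sa := S.subgroupOf A with hSa
  have hSA : S ≤ A := hSF.trans (Subgroup.map_subtype_le _)
  have hSaF : Sa ≤ F := by
    intro x hx
    obtain ⟨y, hy, hyx⟩ := hSF (Subgroup.mem_subgroupOf.mp hx)
    exact (Subtype.ext hyx : y = x) ▸ hy
  have hSan : Sa.IsSubnormal := by
    have h1 : (Sa.subgroupOf F).IsSubnormal := by
      have := hSsn.comap ((F.equivMapOfInjective A.subtype A.subtype_injective).toMonoidHom)
      exact this
    exact Subgroup.IsSubnormal.trans hSaF h1 (inferInstance : F.Normal).isSubnormal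
  have hCa : F ⊓ Subgroup.centralizer (Sa : Set ↥A) ≤ Sa := by
    rintro x ⟨hxF, hxC⟩
    refine hSC ⟨⟨x, hxF, rfl⟩, Subgroup.mem_centralizer_iff.mpr fun s hs => ?_⟩
    exact congrArg Subtype.val (Subgroup.mem_centralizer_iff.mp hxC ⟨s, hSA hs⟩ hs)
  have hSN : ∀ {r : ℕ} {T : Subgroup G}, S ≤ Subgroup.normalizer (T : Set G) →
      T ≤ (pCore r ↥B).map B.subtype → Sa ≤ Subgroup.normalizer ((T.subgroupOf A : Subgroup ↥A) : Set ↥A) := by
    intro r T hT _ x hx
    exact Subgroup.mem_normalizer_iff.mpr fun w => Subgroup.mem_normalizer_iff.mp (hT hx) (w : G)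
  have hSP : ∀ r : ℕ, S ≤ Subgroup.normalizer (((pCore r ↥B).map B.subtype : Subgroup G) : Set G) :=
    fun r => hSB.trans (le_normalizer_map_subtype B (pCore r ↥B))
  -- subgroups of `O_r(B) ∩ A` normalised by `S`
  have key : ∀ (r : ℕ) [Fact r.Prime] (T : Subgroup G), T ≤ (pCore r ↥B).map B.subtype → T ≤ A →
      S ≤ Subgroup.normalizer (T : Set G) →
      T.subgroupOf A ≤ Subgroup.centralizer (rPrimeFStar ↥A r : Set ↥A) := by
    intro r _ T hT hTA hST
    refine le_centralizer_rPrimeFStar hSaF hSan hCa ?_ (hSN (r := r) hST hT)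
    exact ((Constrained.isPGroup_pCore (G := ↥B) (p := r)).map B.subtype |>.to_le hT).comap_of_injective
      A.subtype A.subtype_injective
  refine ⟨fun q hq hqF => ?_, fun p hp hpF => ?_⟩
  · haveI := Fact.mk hq
    set T := (pCore q ↥B).map B.subtype ⊓ A with hT
    have hST : S ≤ Subgroup.normalizer (T : Set G) := by
      intro s hs
      refine Subgroup.mem_normalizer_iff.mpr fun w => ?_
      exact Subgroup.mem_inf.trans ((and_congr (Subgroup.mem_normalizer_iff.mp (hSP q hs) w)
        (Subgroup.mem_normalizer_iff.mp (Subgroup.le_normalizer (hSA hs)) w)).trans Subgroup.mem_inf.symm)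
    have hpc : pCore q ↥A = ⊥ := by
      by_contra h
      exact hqF (dvd_of_pCore_ne_bot h)
    have hle := key q T inf_le_left inf_le_right hST
    have hFle : F ≤ rPrimeFStar ↥A q := by
      have := generalizedFitting_le_rPrimeFStar_sup (H := ↥A) q
      rwa [hpc, sup_bot_eq] at this
    have hTF : T.subgroupOf A ≤ fittingSubgroup ↥A :=
      (hle.trans (Subgroup.centralizer_le (SetLike.coe_subset_coe.mpr hFle))).trans
        centralizer_generalizedFitting_le_fitting
    have hTp : IsPGroup q ↥(T.subgroupOf A) :=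
      (((Constrained.isPGroup_pCore (G := ↥B) (p := q)).map B.subtype).to_le inf_le_left).comap_of_injective
        A.subtype A.subtype_injective
    have hbot : T.subgroupOf A = ⊥ := le_bot_iff.mp
      ((le_inf le_rfl hTF).trans (Constrained.disjoint_of_isPGroup_of_not_dvd hTp hqF).le)
    exact (Subgroup.map_subgroupOf_eq_of_le inf_le_right).symm.trans (by rw [hbot, Subgroup.map_bot])
  · haveI := Fact.mk hp
    set P := (pCore p ↥B).map B.subtype with hP
    intro x hx y hy
    have hyX : y ∈ rPrimeFStar ↥A p := by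
      obtain ⟨y', hy', rfl⟩ := hy
      have hle : pResidual p ↥F ≤ (rPrimeFStar ↥A p).comap F.subtype := by
        refine (Subgroup.closure_le _).mpr fun d hd => ?_
        refine mem_rPrimeFStar ?_ d.2
        show (orderOf (d : ↥A)).Coprime p
        rw [Subgroup.orderOf_coe]
        exact hd
      exact hle hy'
    -- the centre of `O_p(A)`
    set Za := (Subgroup.center ↥(pCore p ↥A)).map (pCore p ↥A).subtype with hZa
    set Z := Za.map A.subtype with hZ
    have hZne : Z ≠ ⊥ := center_map_ne_bot (pCore_ne_bot_of_dvd hpF)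
    have hCent : ∀ (t : ℕ) [Fact t.Prime],
        ∀ z ∈ (Subgroup.center ↥(pCore t ↥A)).map (pCore t ↥A).subtype,
          (∀ w ∈ F, w * z = z * w) ∧ z ∈ Sa := by
      intro t _ z hz
      have hzf : z ∈ fittingSubgroup ↥A :=
        Constrained.pCore_le_fitting (p := t) (Subgroup.map_subtype_le _ hz)
      have hc : ∀ w ∈ F, w * z = z * w := by
        intro w hw
        obtain ⟨e, he, f, hf, rfl⟩ := mem_generalizedFitting_iff_exists.mp hw
        have h1 : z * e = e * z := commute_of_commutator_eq_bot commutator_fitting_layer hzf he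
        have h2 := commute_center_pCore hz hf
        calc e * f * z = e * (z * f) := by rw [h2, mul_assoc]
          _ = z * (e * f) := by rw [← mul_assoc, ← h1, mul_assoc]
      exact ⟨hc, mem_of_center_generalizedFitting hCa hSaF (fitting_le_generalizedFitting hzf) hc⟩
    have hZc : ∀ z ∈ Za, ∀ w ∈ F, w * z = z * w := fun z hz => (hCent p z hz).1
    have hZS : Za ≤ Sa := fun z hz => (hCent p z hz).2
    have hNZ : Subgroup.normalizer (Z : Set G) = A :=
      normalizer_eq_of_isCoatom hA hZne (Subgroup.map_subtype_le _) (le_normalizer_map_subtype A Za)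
    set T := P ⊓ Subgroup.centralizer (Z : Set G) with hT
    have hTA : T ≤ A := inf_le_right.trans ((Subgroup.centralizer_le_normalizer _).trans hNZ.le)
    have hST : S ≤ Subgroup.normalizer (T : Set G) := by
      have hSZ : S ≤ Subgroup.normalizer ((Subgroup.centralizer (Z : Set G) : Subgroup G) : Set G) :=
        Coprime.le_normalizer_centralizer (hSA.trans (le_normalizer_map_subtype A Za))
      intro s hs
      refine Subgroup.mem_normalizer_iff.mpr fun w => ?_
      exact Subgroup.mem_inf.trans ((and_congr (Subgroup.mem_normalizer_iff.mp (hSP p hs) w)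
        (Subgroup.mem_normalizer_iff.mp (hSZ hs) w)).trans Subgroup.mem_inf.symm)
    have hTC := key p T inf_le_left hTA hST
    have hdP : ∀ d ∈ Sa, (orderOf d).Coprime p → (d : G) ∈ Subgroup.centralizer (P : Set G) := by
      intro d hd hdo
      refine Subgroup.mem_centralizer_iff.mpr fun r hr => ?_
      refine (CharPClimb.commute_of_commute_fixed (p := p) (A := Z) (R := P) (x := (d : G)) ?_ ?_ ?_ (hSP p hd)
        ?_ ?_ ?_ r hr).symm
      · exact ((Constrained.isPGroup_pCore (G := ↥A) (p := p)).to_le (Subgroup.map_subtype_le _)).map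
          A.subtype
      · exact (Constrained.isPGroup_pCore (G := ↥B) (p := p)).map B.subtype
      · rintro _ ⟨z, hz, rfl⟩
        exact hSP p (hZS hz)
      · rintro _ ⟨z, hz, rfl⟩
        exact congrArg Subtype.val (hZc z hz d (hSaF hd))
      · rwa [Subgroup.orderOf_coe]
      · intro w hw hwZ
        have hwT : w ∈ T := ⟨hw, Subgroup.mem_centralizer_iff.mpr hwZ⟩
        exact congrArg Subtype.val (Subgroup.mem_centralizer_iff.mp
          (hTC (show (⟨w, hTA hwT⟩ : ↥A) ∈ T.subgroupOf A from hwT)) d (mem_rPrimeFStar hdo (hSaF hd)))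
    by_cases hy1 : y = 1
    · subst hy1; simp
    have hPA : P ≤ A := by
      set Q := (Subgroup.centralizer (P : Set G)).subgroupOf A with hQ
      have hE : layer ↥A ≤ Q := layer_le_of_rPrime (r := p) fun d hd hdo =>
        hdP d (layer_le_of_selfCentralizing hSaF hSan hCa hd) hdo
      have hfin : ∀ W : Subgroup ↥A, W.Normal → W ≠ ⊥ → W ≤ Q → P ≤ A := by
        intro W hWn hWne hWQ
        haveI := hWn
        have h1 : P ≤ Subgroup.centralizer ((W.map A.subtype : Subgroup G) : Set G) := by
          rw [Subgroup.le_centralizer_iff]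
          rintro _ ⟨w, hw, rfl⟩
          exact hWQ hw
        refine h1.trans ((Subgroup.centralizer_le_normalizer _).trans (le_of_eq ?_))
        exact normalizer_eq_of_isCoatom hA
          (fun e => hWne ((Subgroup.map_eq_bot_iff_of_injective _ A.subtype_injective).mp e))
          (Subgroup.map_subtype_le _) (le_normalizer_map_subtype A W)
      by_cases hL : layer ↥A = ⊥
      · set M := fittingSubgroup ↥A ⊓ pPrimeCore p ↥A with hM
        have hMne : M ≠ ⊥ := by
          intro hMb
          have h0 : rPrimeFStar ↥A p = ⊥ := by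
            show layer ↥A ⊔ M = ⊥
            rw [hL, hMb, sup_bot_eq]
          rw [h0, Subgroup.mem_bot] at hyX
          exact hy1 hyX
        obtain ⟨t, ht, htd⟩ := Nat.exists_prime_and_dvd
          (fun h => hMne (Subgroup.card_eq_one.mp h) : Nat.card ↥M ≠ 1)
        haveI := Fact.mk ht
        have htp : t ≠ p := by
          rintro rfl
          exact Constrained.pPrimeCore_not_dvd (htd.trans (Subgroup.card_dvd_of_le inf_le_right))
        set W := (Subgroup.center ↥(pCore t ↥A)).map (pCore t ↥A).subtype with hW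
        refine hfin W inferInstance ?_ ?_
        · intro e
          refine center_map_ne_bot (pCore_ne_bot_of_dvd (htd.trans (Subgroup.card_dvd_of_le
            (inf_le_left : M ≤ fittingSubgroup ↥A)))) ?_
          rw [← hW, e, Subgroup.map_bot]
        · intro z hz
          refine hdP z (hCent t z hz).2 ?_
          obtain ⟨k, hk⟩ := IsPGroup.iff_card.mp (Constrained.isPGroup_pCore (G := ↥A) (p := t))
          refine Nat.Coprime.coprime_dvd_left
            (Subgroup.orderOf_dvd_natCard _ (Subgroup.map_subtype_le _ hz)) ?_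
          rw [hk]
          exact ((Nat.coprime_primes ht hp).mpr htp).pow_left k
      · exact hfin (layer ↥A) inferInstance hL hE
    have h := key p P le_rfl hPA (hSP p) (show (⟨x, hPA hx⟩ : ↥A) ∈ P.subgroupOf A from hx)
    exact (congrArg Subtype.val (Subgroup.mem_centralizer_iff.mp h y hyX)).symm

end CfsgLib.Cores
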