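import Cfsg.Agent.Cores.SubnormalStab
import Cfsg.Agent.CharP.Climb
import Cfsg.Agent.Coprime.Sylow
import Cfsg.Agent.Coprime.Minimal
import Cfsg.Agent.Constrained.PiCore
import Cfsg.Agent.Fitting.Join
import Cfsg.Agent.Eq.Def_OddOrderLocal
import Cfsg.Agent.Eq.Def_CaseTheorems

/-!
Bender's uniqueness of maximal invariant `q`-subgroups of a solvable subgroup normalised by a
self-centralising subgroup `M` of `F(H)`, `H` a maximal local subgroup with `|F(H)|` divisible by
two primes.
-/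

set_option autoImplicit false

open Cfsg
open scoped commutatorElement

namespace CfsgLib.Cores

variable {G : Type*} [Group G] [Finite G]

theorem normalizer_eq_of_maximal_local {H T : Subgroup G}
    (hmax : ∀ L : Subgroup G, IsLocalSubgroup L → H ≤ L → L = H) {t : ℕ} (ht : t.Prime)
    (hT : IsPGroup t ↥T) (hne : T ≠ ⊥) (hHT : H ≤ Subgroup.normalizer (T : Set G)) :
    Subgroup.normalizer (T : Set G) = H :=
  hmax _ ⟨t, T, ht, hT, hne, rfl⟩ hHT

/-- The `M`-invariant `q`-subgroups of `R`. -/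
theorem invariant_le_piCore {H M R : Subgroup G}
    (hmax : ∀ L : Subgroup G, IsLocalSubgroup L → H ≤ L → L = H)
    (hF2 : 2 ≤ (Nat.card (fittingOf H)).primeFactors.card) (hM : M ≤ fittingOf H)
    (hCM : fittingOf H ⊓ Subgroup.centralizer (M : Set G) ≤ M) (hR : Group.IsSolvable ↥R)
    (hMR : M ≤ Subgroup.normalizer (R : Set G))
    (hXR : H ⊓ Subgroup.centralizer (fittingOf H : Set G) ≤ Subgroup.normalizer (R : Set G)) :
    (∀ U : Subgroup G, U ≤ R → U ≤ Subgroup.centralizer (M : Set G) →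
      (Nat.card ↥U).Coprime (Nat.card (fittingOf H)) → U = ⊥) ∧
    ∀ (q : ℕ) [Fact q.Prime], ¬ q ∣ Nat.card (fittingOf H) → ∀ Q : Subgroup G, Q ≤ R →
      IsPGroup q ↥Q → M ≤ Subgroup.normalizer (Q : Set G) →
        Q ≤ piCoreOf (primesNotDvd (Nat.card (fittingOf H))) R := by
  set F := fittingOf H with hF
  have hFH : F ≤ H := Subgroup.map_subtype_le _
  have hHF : H ≤ Subgroup.normalizer (F : Set G) := le_normalizer_map_subtype H (fittingSubgroup ↥H)
  have hMH : M ≤ H := hM.trans hFH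
  have hcardF : Nat.card ↥F = Nat.card ↥(fittingSubgroup ↥H) :=
    Subgroup.card_map_of_injective H.subtype_injective
  -- centres of the cores
  let Z : ℕ → Subgroup G := fun t =>
    ((Subgroup.center ↥(pCore t ↥H)).map (pCore t ↥H).subtype).map H.subtype
  let Mt : ℕ → Subgroup G := fun t => M ⊓ (pCore t ↥H).map H.subtype
  have hZM : ∀ (t : ℕ) [Fact t.Prime], Z t ≤ Mt t := by
    intro t _
    rintro _ ⟨z, hz, rfl⟩
    refine ⟨hCM ⟨⟨z, Constrained.pCore_le_fitting (p := t) (Subgroup.map_subtype_le _ hz), rfl⟩,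
      Subgroup.mem_centralizer_iff.mpr fun m hm => ?_⟩, ⟨z, Subgroup.map_subtype_le _ hz, rfl⟩⟩
    obtain ⟨f, hf, rfl⟩ := hM hm
    exact congrArg Subtype.val (commute_center_pCore hz hf).symm
  have hCMt : ∀ (t : ℕ) [Fact t.Prime], t ∣ Nat.card ↥F →
      Subgroup.centralizer (Mt t : Set G) ≤ H := by
    intro t _ htd
    have hne : Z t ≠ ⊥ := center_map_ne_bot (pCore_ne_bot_of_dvd (hcardF ▸ htd))
    have hp : IsPGroup t ↥(Z t) :=
      ((Constrained.isPGroup_pCore (G := ↥H) (p := t)).to_le (Subgroup.map_subtype_le _)).map H.subtype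
    exact ((Subgroup.centralizer_le (SetLike.coe_subset_coe.mpr (hZM t))).trans
      (Subgroup.centralizer_le_normalizer _)).trans
        (normalizer_eq_of_maximal_local hmax Fact.out hp hne (le_normalizer_map_subtype H _)).le
  obtain ⟨t0, ht0⟩ : (Nat.card ↥F).primeFactors.Nonempty := Finset.card_pos.mp (by omega)
  haveI := Fact.mk (Nat.prime_of_mem_primeFactors ht0)
  have hCMH : Subgroup.centralizer (M : Set G) ≤ H :=
    (Subgroup.centralizer_le (SetLike.coe_subset_coe.mpr inf_le_left)).trans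
      (hCMt t0 (Nat.dvd_of_mem_primeFactors ht0))
  -- `X ∩ R ≤ F`
  set X := H ⊓ Subgroup.centralizer (F : Set G) with hX
  have hXF : X ⊓ R ≤ F := by
    set W := (X ⊓ R).subgroupOf H with hW
    set Xa := Subgroup.centralizer (fittingSubgroup ↥H : Set ↥H) with hXa
    haveI : Xa.Normal := Subgroup.normal_centralizer
    have hWX : W ≤ Xa := by
      intro x hx
      refine Subgroup.mem_centralizer_iff.mpr fun f hf => Subtype.ext ?_
      exact Subgroup.mem_centralizer_iff.mp (Subgroup.mem_subgroupOf.mp hx).1.2 _ ⟨f, hf, rfl⟩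
    have hXa' : ∀ g ∈ Xa, (g : G) ∈ X := by
      intro g hg
      refine ⟨g.2, Subgroup.mem_centralizer_iff.mpr ?_⟩
      rintro _ ⟨f, hf, rfl⟩
      exact congrArg Subtype.val (Subgroup.mem_centralizer_iff.mp hg f hf)
    have hWn : Xa ≤ Subgroup.normalizer (W : Set ↥H) := by
      intro g hg
      refine Subgroup.mem_normalizer_iff.mpr fun w => ?_
      rw [hW, Subgroup.mem_subgroupOf, Subgroup.mem_subgroupOf]
      simp only [Subgroup.coe_mul, InvMemClass.coe_inv, Subgroup.mem_inf]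
      exact and_congr (Subgroup.mem_normalizer_iff.mp (Subgroup.le_normalizer (hXa' g hg)) (w : G))
        (Subgroup.mem_normalizer_iff.mp (hXR (hXa' g hg)) (w : G))
    have hWs : Group.IsSolvable ↥W := by
      haveI := hR
      exact solvable_of_solvable_injective
        (f := ((H.subtype.comp W.subtype).codRestrict R fun w => (Subgroup.mem_subgroupOf.mp w.2).2))
        (fun a b h => Subtype.ext (Subtype.ext (congrArg Subtype.val h :)))
    have hWsn : W.IsSubnormal := Subgroup.IsSubnormal.trans hWX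
      ((Subgroup.normal_subgroupOf_iff_le_normalizer hWX).mpr hWn).isSubnormal
      (inferInstance : Xa.Normal).isSubnormal
    have h1 : W ≤ solvRad ↥H ⊓ Xa := le_inf (le_solvRad_of_isSubnormal hWsn hWs) hWX
    have h2 : solvRad ↥H ⊓ Xa ≤ fittingSubgroup ↥H :=
      solvable_normal_le_fitting (isSolvable_of_le inf_le_left solvRad_isSolvable) inf_le_right
    intro x hx
    exact ⟨⟨x, hx.1.1⟩, h2 (h1 (Subgroup.mem_subgroupOf.mpr hx)), rfl⟩
  have hfpf : ∀ U : Subgroup G, U ≤ R → U ≤ Subgroup.centralizer (M : Set G) →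
      (Nat.card ↥U).Coprime (Nat.card ↥F) → U = ⊥ := by
    intro U hUR hUC hcop
    by_contra hne
    obtain ⟨t, ht, htd⟩ := Nat.exists_prime_and_dvd
      (fun h => hne (Subgroup.card_eq_one.mp h) : Nat.card ↥U ≠ 1)
    haveI := Fact.mk ht
    obtain ⟨y, hy⟩ := exists_prime_orderOf_dvd_card' (G := ↥U) t htd
    have htF : ¬ t ∣ Nat.card ↥F := fun h => ht.not_dvd_one (hcop ▸ Nat.dvd_gcd htd h)
    have hyM : (y : G) ∈ Subgroup.centralizer (M : Set G) := hUC y.2
    have hyH : (y : G) ∈ H := hCMH hyM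
    have hyp : IsPGroup t ↥(Subgroup.zpowers (y : G)) := by
      refine IsPGroup.of_card (n := 1) ?_
      rw [Nat.card_zpowers, pow_one, Subgroup.orderOf_coe, hy]
    haveI : Group.IsNilpotent ↥F := by
      haveI := Constrained.isNilpotent_fitting (G := ↥H)
      exact Group.nilpotent_of_mulEquiv
        ((fittingSubgroup ↥H).equivMapOfInjective H.subtype H.subtype_injective)
    have hyF := le_centralizer_of_subnormal_selfCentralizing (Nat.card ↥F) F M (Subgroup.zpowers (y : G))
      le_rfl hyp htF (Subgroup.zpowers_le.mpr (hHF hyH)) hM (Fitting.isSubnormal_of_isNilpotent _)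
      (Subgroup.zpowers_le.mpr hyM) hCM
    have hyX : (y : G) ∈ F := hXF ⟨⟨hyH, hyF (Subgroup.mem_zpowers _)⟩, hUR y.2⟩
    refine htF ?_
    rw [← hy, ← Subgroup.orderOf_coe]
    exact Subgroup.orderOf_dvd_natCard F hyX
  refine ⟨hfpf, fun q _ hqF Q hQR hQ hMQ => ?_⟩
  have hMtn : ∀ t, Mt t ≤ M := fun t => inf_le_left
  have hQfpf : ∀ (t : ℕ) [Fact t.Prime], t ∣ Nat.card ↥F →
      Q ⊓ Subgroup.centralizer (Mt t : Set G) = ⊥ := by
    intro t _ htd
    set U := Q ⊓ Subgroup.centralizer (Mt t : Set G) with hU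
    refine hfpf U (inf_le_left.trans hQR) ?_ ?_
    · intro z hz
      refine Subgroup.mem_centralizer_iff.mpr fun m hm => ?_
      have hzH : z ∈ H := hCMt t htd hz.2
      have h1 : ⁅z, m⁆ ∈ F ⊓ Q := by
        rw [commutatorElement_def]
        exact ⟨F.mul_mem ((Subgroup.mem_normalizer_iff.mp (hHF hzH) m).mp (hM hm)) (F.inv_mem (hM hm)),
          by
            rw [show z * m * z⁻¹ * m⁻¹ = z * (m * z⁻¹ * m⁻¹) by group]
            exact Q.mul_mem hz.1 ((Subgroup.mem_normalizer_iff.mp (hMQ hm) z⁻¹).mp (Q.inv_mem hz.1))⟩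
      have h2 : F ⊓ Q = ⊥ := by
        rw [inf_comm]
        exact Constrained.disjoint_of_isPGroup_of_not_dvd hQ hqF
      rw [h2, Subgroup.mem_bot] at h1
      exact (commutatorElement_eq_one_iff_mul_comm.mp h1).symm
    · obtain ⟨k, hk⟩ := IsPGroup.iff_card.mp (hQ.to_le (inf_le_left : U ≤ Q))
      rw [hk]
      exact ((Fact.out : q.Prime).coprime_iff_not_dvd.mpr hqF).pow_left k
  have hQcomm : ∀ (t : ℕ) [Fact t.Prime], t ∣ Nat.card ↥F → ⁅Q, Mt t⁆ = Q := by
    intro t _ htd
    have hn : Mt t ≤ Subgroup.normalizer (Q : Set G) := (hMtn t).trans hMQ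
    have hMtp : IsPGroup t ↥(Mt t) :=
      ((Constrained.isPGroup_pCore (G := ↥H) (p := t)).map H.subtype).to_le inf_le_right
    have hqt : t ≠ q := fun e => hqF (e ▸ htd)
    have hcop : (Nat.card ↥(Mt t)).Coprime (Nat.card ↥Q) := by
      obtain ⟨a, ha⟩ := IsPGroup.iff_card.mp hMtp
      obtain ⟨b, hb⟩ := IsPGroup.iff_card.mp hQ
      rw [ha, hb]
      exact ((Nat.coprime_primes (Fact.out : t.Prime) (Fact.out : q.Prime)).mpr hqt).pow a b
    have h := Coprime.eq_commutator_sup_centralizer hn hcop (Or.inl (Coprime.isSolvable_of_isPGroup hMtp))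
    rwa [hQfpf t htd, sup_bot_eq] at h
  -- pass to `R / K`
  set σ := primesNotDvd (Nat.card ↥F) with hσ
  set K := piCoreOf σ R with hK
  set N := Subgroup.normalizer (K : Set G) with hN
  have hRN : R ≤ N := le_normalizer_map_subtype R (piCore σ ↥R)
  have hMN : M ≤ N := Coprime.le_normalizer_map_characteristic hMR (piCore σ ↥R)
  haveI : (K.subgroupOf N).Normal := Subgroup.normal_in_normalizer
  set ψ := QuotientGroup.mk' (K.subgroupOf N) with hψ
  set Rb := (R.subgroupOf N).map ψ with hRb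
  let ρ : ↥R →* ↥Rb := (ψ.comp (Subgroup.inclusion hRN)).codRestrict Rb
    (fun r => ⟨Subgroup.inclusion hRN r, r.2, rfl⟩)
  have hρ : Function.Surjective ρ := by
    rintro ⟨_, r, hr, rfl⟩
    exact ⟨⟨(r : G), hr⟩, rfl⟩
  have hρk : ρ.ker = piCore σ ↥R := by
    ext r
    rw [MonoidHom.mem_ker, Subtype.ext_iff]
    show ψ (Subgroup.inclusion hRN r) = 1 ↔ _
    rw [hψ, QuotientGroup.mk'_apply, QuotientGroup.eq_one_iff, Subgroup.mem_subgroupOf]
    constructor
    · rintro ⟨w, hw, hwr⟩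
      exact (Subtype.ext hwr : w = r) ▸ hw
    · exact fun h => ⟨r, h, rfl⟩
  let eR : ↥R ⧸ piCore σ ↥R ≃* ↥Rb :=
    (QuotientGroup.quotientMulEquivOfEq hρk.symm).trans (QuotientGroup.quotientKerEquivOfSurjective ρ hρ)
  haveI hRbs : Group.IsSolvable ↥Rb := by
    haveI := hR
    exact solvable_of_surjective hρ
  have hRbO : piCore σ ↥Rb = ⊥ := by
    rw [← Constrained.piCore_map eR σ, Constrained.piCore_quotient_piCore, Subgroup.map_bot]
  have hQN : Q ≤ N := hQR.trans hRN
  set Qb := (Q.subgroupOf N).map ψ with hQb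
  have hQRb : Qb ≤ Rb := Subgroup.map_mono (Subgroup.comap_mono hQR)
  have hMRb : (M.subgroupOf N).map ψ ≤ Subgroup.normalizer (Rb : Set _) := by
    rintro _ ⟨m, hm, rfl⟩
    refine Subgroup.le_normalizer_map ψ ⟨m, ?_, rfl⟩
    exact Subgroup.mem_normalizer_iff.mpr fun w => Subgroup.mem_normalizer_iff.mp (hMR hm) (w : G)
  have hQC : Qb.subgroupOf Rb ≤ Subgroup.centralizer (fittingSubgroup ↥Rb : Set ↥Rb) := by
    rw [Subgroup.le_centralizer_iff, Constrained.fitting_eq_iSup_pCore]
    refine iSup_le fun s => iSup_le fun hs => ?_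
    haveI := Fact.mk hs
    by_cases hsF : s ∣ Nat.card ↥F
    swap
    · have hle : pCore s ↥Rb ≤ piCore σ ↥Rb := by
        refine Constrained.le_piCore inferInstance fun t ht htd => ?_
        obtain ⟨k, hk⟩ := IsPGroup.iff_card.mp (Constrained.isPGroup_pCore (G := ↥Rb) (p := s))
        rw [hk] at htd
        have := (Nat.prime_dvd_prime_iff_eq ht hs).mp (ht.dvd_of_dvd_pow htd)
        exact this ▸ ⟨hs, hsF⟩
      rw [hRbO, le_bot_iff] at hle
      rw [hle]
      exact bot_le
    obtain ⟨p, hp, hps⟩ : ∃ p ∈ (Nat.card ↥F).primeFactors, p ≠ s :=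
      Finset.exists_mem_ne (by omega) s
    haveI := Fact.mk (Nat.prime_of_mem_primeFactors hp)
    have hpF := Nat.dvd_of_mem_primeFactors hp
    set V := (pCore s ↥Rb).map Rb.subtype with hV
    have hVp : IsPGroup s ↥V := (Constrained.isPGroup_pCore (G := ↥Rb) (p := s)).map Rb.subtype
    set Ap := ((Mt p).subgroupOf N).map ψ with hAp
    set As := ((Mt s).subgroupOf N).map ψ with hAs
    have hnormV : (M.subgroupOf N).map ψ ≤ Subgroup.normalizer (V : Set _) :=
      Coprime.le_normalizer_map_characteristic hMRb (pCore s ↥Rb)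
    have hsub : ∀ t, ((Mt t).subgroupOf N).map ψ ≤ (M.subgroupOf N).map ψ := fun t =>
      Subgroup.map_mono (Subgroup.comap_mono (hMtn t))
    have hVC : ∀ v ∈ V, ∀ a ∈ Ap, a * v = v * a := by
      intro v hv a ha
      refine CharPClimb.commute_of_commute_fixed (p := s) (A := As) (R := V) (x := a) ?_ hVp
        ((hsub s).trans hnormV) (hnormV (hsub p ha)) ?_ ?_ ?_ v hv
      · exact ((((Constrained.isPGroup_pCore (G := ↥H) (p := s)).map H.subtype).to_le
          (inf_le_right : Mt s ≤ _)).comap_of_injective N.subtype N.subtype_injective).map ψ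
      · rintro b ⟨ms, hms, rfl⟩
        obtain ⟨mp, hmp, rfl⟩ := ha
        rw [← map_mul, ← map_mul]
        congr 1
        apply Subtype.ext
        obtain ⟨x, hx, hxe⟩ := (Subgroup.mem_subgroupOf.mp hmp).2
        obtain ⟨y, hy, hye⟩ := (Subgroup.mem_subgroupOf.mp hms).2
        show (mp : G) * (ms : G) = (ms : G) * (mp : G)
        rw [← hxe, ← hye, ← map_mul, ← map_mul, commute_pCore_pCore hps hx hy]
      · obtain ⟨mp, hmp, rfl⟩ := ha
        obtain ⟨k, hk⟩ := IsPGroup.iff_card.mp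
          (((Constrained.isPGroup_pCore (G := ↥H) (p := p)).map H.subtype).to_le (inf_le_right : Mt p ≤ _))
        refine Nat.Coprime.coprime_dvd_left ((orderOf_map_dvd ψ mp).trans ?_)
          (((Nat.coprime_primes (Fact.out : p.Prime) hs).mpr hps).pow_left k)
        rw [← Subgroup.orderOf_coe, ← hk]
        exact Subgroup.orderOf_dvd_natCard _ (Subgroup.mem_subgroupOf.mp hmp)
      · intro v hv hvA
        obtain ⟨r, hr, rfl⟩ := (Subgroup.map_subtype_le _ hv : v ∈ Rb)
        -- lift to `R ∩ C(M_s)`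
        have hKR : K ≤ R := Subgroup.map_subtype_le _
        have hMsK : Mt s ≤ Subgroup.normalizer (K : Set G) := (hMtn s).trans hMN
        have hMsp : IsPGroup s ↥(Mt s) :=
          ((Constrained.isPGroup_pCore (G := ↥H) (p := s)).map H.subtype).to_le inf_le_right
        have hcop : (Nat.card ↥(Mt s)).Coprime (Nat.card ↥K) := by
          obtain ⟨k, hk⟩ := IsPGroup.iff_card.mp hMsp
          rw [hk]
          refine (hs.coprime_iff_not_dvd.mpr fun hd => ?_).pow_left k
          rw [hK, piCoreOf, Subgroup.card_map_of_injective R.subtype_injective] at hd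
          exact (Constrained.piCore_isPiCard s hs hd).2 hsF
        obtain ⟨w, hw, hwC⟩ : ∃ w ∈ K, w * (r : G) ∈ Subgroup.centralizer (Mt s : Set G) := by
          refine Coprime.exists_mul_mem_centralizer hMsK hcop
            (Or.inl (Coprime.isSolvable_of_isPGroup hMsp)) ?_
          intro b hb
          have hbN : b ∈ N := hMN (hMtn s hb)
          have hc := hvA (ψ ⟨b, hbN⟩) ⟨⟨b, hbN⟩, hb, rfl⟩
          have h2 : ψ ⁅r, (⟨b, hbN⟩ : ↥N)⁆ = 1 := by
            rw [map_commutatorElement]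
            exact commutatorElement_eq_one_iff_mul_comm.mpr hc.symm
          exact Subgroup.mem_subgroupOf.mp ((QuotientGroup.eq_one_iff (⁅r, (⟨b, hbN⟩ : ↥N)⁆)).mp h2)
        obtain ⟨mp, hmp, rfl⟩ := ha
        set u : ↥N := ⟨w * (r : G), N.mul_mem (hRN (hKR hw)) r.2⟩ with hu
        have huv : ψ u = ψ r := by
          rw [show u = (⟨w, hRN (hKR hw)⟩ : ↥N) * r from rfl, map_mul,
            show ψ ⟨w, hRN (hKR hw)⟩ = 1 from (QuotientGroup.eq_one_iff _).mpr hw, one_mul]
        have huH : w * (r : G) ∈ H := hCMt s hsF hwC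
        have hFp : H ≤ Subgroup.normalizer (((pCore p ↥H).map H.subtype : Subgroup G) : Set G) :=
          le_normalizer_map_subtype H (pCore p ↥H)
        have hc1 : ((⁅u, mp⁆ : ↥N) : G) ∈ (pCore p ↥H).map H.subtype := by
          show (u : G) * (mp : G) * (u : G)⁻¹ * (mp : G)⁻¹ ∈ _
          exact mul_mem ((Subgroup.mem_normalizer_iff.mp (hFp huH) _).mp (Subgroup.mem_subgroupOf.mp hmp).2)
            (inv_mem (Subgroup.mem_subgroupOf.mp hmp).2)
        have hc2 : ψ ⁅u, mp⁆ ∈ V := by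
          rw [map_commutatorElement, huv, commutatorElement_def,
            show ψ r * ψ mp * (ψ r)⁻¹ * (ψ mp)⁻¹ = ψ r * (ψ mp * (ψ r)⁻¹ * (ψ mp)⁻¹) by group]
          exact V.mul_mem hv ((Subgroup.mem_normalizer_iff.mp
            (hnormV (hsub p ⟨mp, hmp, rfl⟩)) _).mp (V.inv_mem hv))
        have hc3 : ψ ⁅u, mp⁆ = 1 := by
          obtain ⟨k, hk⟩ := IsPGroup.iff_card.mp ((Constrained.isPGroup_pCore (G := ↥H) (p := p)).map H.subtype)
          obtain ⟨l, hl⟩ := IsPGroup.iff_card.mp hVp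
          refine orderOf_eq_one_iff.mp (Nat.Coprime.eq_one_of_dvd ?_ (Subgroup.orderOf_dvd_natCard V hc2))
          rw [hl]
          refine (Nat.Coprime.pow_right l ?_)
          refine Nat.Coprime.coprime_dvd_left ((orderOf_map_dvd ψ _).trans ?_)
            (((Nat.coprime_primes (Fact.out : p.Prime) hs).mpr hps).pow_left k)
          rw [← Subgroup.orderOf_coe, ← hk]
          exact Subgroup.orderOf_dvd_natCard _ hc1
        rw [map_commutatorElement, huv] at hc3
        exact (commutatorElement_eq_one_iff_mul_comm.mp hc3).symm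
    -- `Q = [Q, M_p]` centralises `V`
    have hVA : ⁅Ap, V⁆ = ⊥ := commutator_eq_bot_of_forall_commute fun a ha v hv => hVC v hv a ha
    have hQbV : ⁅Qb, V⁆ = ⊥ := by
      have hQA : ⁅Qb, Ap⁆ = Qb := by
        rw [hQb, hAp, ← Subgroup.map_commutator]
        congr 1
        apply Subgroup.map_injective N.subtype_injective
        rw [Subgroup.map_commutator, Subgroup.map_subgroupOf_eq_of_le hQN,
          Subgroup.map_subgroupOf_eq_of_le ((hMtn p).trans hMN), hQcomm p hpF]
      rw [← hQA]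
      refine Subgroup.commutator_commutator_eq_bot_of_rotate ?_ ?_
      · rw [hVA, Subgroup.commutator_bot_left]
      · refine le_bot_iff.mp ((Subgroup.commutator_mono
          (Subgroup.le_normalizer_iff_commutator_le_left.mp (hQRb.trans (le_normalizer_map_subtype Rb (pCore s ↥Rb))))
          le_rfl).trans (commutator_eq_bot_comm.mp hVA).le)
    intro v hv
    refine Subgroup.mem_centralizer_iff.mpr fun x hx => Subtype.ext ?_
    exact commute_of_commutator_eq_bot hQbV (Subgroup.mem_subgroupOf.mp hx) ⟨v, hv, rfl⟩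
  have hQbot : Qb.subgroupOf Rb = ⊥ := by
    have hqb : IsPGroup q ↥(Qb.subgroupOf Rb) :=
      ((hQ.comap_of_injective N.subtype N.subtype_injective).map ψ).comap_of_injective
        Rb.subtype Rb.subtype_injective
    refine le_bot_iff.mp ((le_inf le_rfl (hQC.trans Constrained.centralizer_fitting_le)).trans
      (Constrained.disjoint_of_isPGroup_of_not_dvd hqb fun hd => ?_).le)
    have hne := pCore_ne_bot_of_dvd hd
    apply hne
    rw [eq_bot_iff, ← hRbO]
    refine Constrained.le_piCore inferInstance fun t ht htd => ?_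
    obtain ⟨k, hk⟩ := IsPGroup.iff_card.mp (Constrained.isPGroup_pCore (G := ↥Rb) (p := q))
    rw [hk] at htd
    have := (Nat.prime_dvd_prime_iff_eq ht (Fact.out : q.Prime)).mp (ht.dvd_of_dvd_pow htd)
    exact this ▸ ⟨Fact.out, hqF⟩
  intro x hx
  have h1 : (⟨ψ ⟨x, hQN hx⟩, ⟨⟨x, hQN hx⟩, hQR hx, rfl⟩⟩ : ↥Rb) ∈ Qb.subgroupOf Rb :=
    ⟨⟨x, hQN hx⟩, hx, rfl⟩
  rw [hQbot, Subgroup.mem_bot] at h1
  exact (QuotientGroup.eq_one_iff (⟨x, hQN hx⟩ : ↥N)).mp (congrArg Subtype.val h1)

/-- Exactly one maximal invariant `q`-subgroup, a Sylow subgroup of `O_{π(F)'}(R)`. -/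
theorem existsUnique_maxInvSubgroup {H M R : Subgroup G}
    (hmax : ∀ L : Subgroup G, IsLocalSubgroup L → H ≤ L → L = H)
    (hF2 : 2 ≤ (Nat.card (fittingOf H)).primeFactors.card) (hM : M ≤ fittingOf H)
    (hCM : fittingOf H ⊓ Subgroup.centralizer (M : Set G) ≤ M) (hR : Group.IsSolvable ↥R)
    (hMR : M ≤ Subgroup.normalizer (R : Set G))
    (hXR : H ⊓ Subgroup.centralizer (fittingOf H : Set G) ≤ Subgroup.normalizer (R : Set G))
    (q : ℕ) [Fact q.Prime] (hq : ¬ q ∣ Nat.card (fittingOf H)) :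
    ∃! Q : Subgroup G, Q ∈ maxInvSubgroups R M {q} ∧
      ∀ Q' : Subgroup G, Q' ∈ maxInvSubgroups R M {q} →
        Q' ≤ piCoreOf (primesNotDvd (Nat.card (fittingOf H))) R ∧
        ¬ q ∣ Q'.relIndex (piCoreOf (primesNotDvd (Nat.card (fittingOf H))) R) := by
  obtain ⟨hfpf, hle⟩ := invariant_le_piCore hmax hF2 hM hCM hR hMR hXR
  set σ := primesNotDvd (Nat.card (fittingOf H)) with hσ
  set K := piCoreOf σ R with hK
  have hKR : K ≤ R := Subgroup.map_subtype_le _
  have hMK : M ≤ Subgroup.normalizer (K : Set G) :=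
    Coprime.le_normalizer_map_characteristic hMR (piCore σ ↥R)
  have hKσ : ∀ t : ℕ, t.Prime → t ∣ Nat.card ↥K → ¬ t ∣ Nat.card (fittingOf H) := by
    intro t ht hd
    rw [hK, piCoreOf, Subgroup.card_map_of_injective R.subtype_injective] at hd
    exact (Constrained.piCore_isPiCard t ht hd).2
  have hcopF : (Nat.card ↥K).Coprime (Nat.card (fittingOf H)) :=
    Nat.coprime_of_dvd fun t ht h1 h2 => hKσ t ht h1 h2
  have hcop : (Nat.card ↥M).Coprime (Nat.card ↥K) :=
    (hcopF.coprime_dvd_right (Subgroup.card_dvd_of_le hM)).symm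
  have hsol : Group.IsSolvable ↥M ∨ Group.IsSolvable ↥K :=
    Or.inr (by haveI := hR; exact isSolvable_of_le hKR hR)
  have hC : K ⊓ Subgroup.centralizer (M : Set G) = ⊥ :=
    hfpf _ (inf_le_left.trans hKR) inf_le_right
      (hcopF.coprime_dvd_left (Subgroup.card_dvd_of_le inf_le_left))
  have hinv : ∀ U : Subgroup G, U ∈ invSubgroups R M {q} → IsPGroup q ↥U ∧ U ≤ K := by
    rintro U ⟨hUR, hUq, hUM⟩
    have hUp : IsPGroup q ↥U := by
      exact IsPGroup.of_card (Nat.eq_prime_pow_of_unique_prime_dvd Nat.card_pos.ne'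
        fun {d} hd hdd => hUq d hd hdd)
    exact ⟨hUp, hle q hq U hUR hUp hUM⟩
  obtain ⟨P, hP⟩ := Coprime.exists_invariant_sylow (p := q) hMK hcop hsol
  set Q := (P : Subgroup ↥K).map K.subtype with hQ
  have hQinv : Q ∈ invSubgroups R M {q} := by
    refine ⟨(Subgroup.map_subtype_le _).trans hKR, fun t ht hd => ?_, hP⟩
    obtain ⟨k, hk⟩ := IsPGroup.iff_card.mp P.2
    rw [hQ, Subgroup.card_map_of_injective K.subtype_injective, hk] at hd
    exact (Nat.prime_dvd_prime_iff_eq ht Fact.out).mp (ht.dvd_of_dvd_pow hd)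
  have huniq : ∀ Q' ∈ maxInvSubgroups R M {q}, Q' = Q := by
    rintro Q' ⟨hQ', hmax'⟩
    obtain ⟨hQ'p, hQ'K⟩ := hinv Q' hQ'
    obtain ⟨P', hP'M, hP'⟩ := Coprime.le_invariant_sylow (p := q) hMK hcop hsol Q' hQ'K hQ'p hQ'.2.2
    obtain ⟨c, hc, hcc⟩ := Coprime.invariant_sylow_conj hMK hcop hsol P' P hP'M hP
    rw [hC, Subgroup.mem_bot] at hc
    subst hc
    rw [Coprime.map_conj_one] at hcc
    refine (hmax' Q hQinv ?_).symm
    rw [hQ, ← hcc]
    exact hP'
  refine ⟨Q, ⟨⟨hQinv, fun U hU hQU => ?_⟩, fun Q' hQ' => ?_⟩, fun Q' hQ' => huniq Q' hQ'.1⟩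
  · obtain ⟨hUp, hUK⟩ := hinv U hU
    have h := P.3 (hUp.comap_of_injective K.subtype K.subtype_injective)
      (fun x hx => hQU ⟨x, hx, rfl⟩)
    rw [hQ, ← h]
    exact (Subgroup.map_subgroupOf_eq_of_le hUK).symm
  · rw [huniq Q' hQ']
    refine ⟨Subgroup.map_subtype_le _, ?_⟩
    rw [hQ, Subgroup.relIndex, Subgroup.subgroupOf,
      Subgroup.comap_map_eq_self_of_injective K.subtype_injective]
    exact P.not_dvd_index

end CfsgLib.Cores
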