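import Cfsg.Agent.Cores.BenderMaximal
import Cfsg.Agent.Eq.Def_OddOrderLocal
import Cfsg.Agent.Eq.Def_OddOrder

/-!
Bender's uniqueness: in a simple group with solvable proper subgroups, a maximal subgroup `H` with
`|F(H)|` divisible by two primes is the only maximal subgroup containing `M ≥ Z(F(H))`, if `M`
normalises no nontrivial subgroup of order prime to `|F(H)|`.
-/

set_option autoImplicit false

open Cfsg

namespace CfsgLib.Cores

variable {G : Type*} [Group G] [Finite G]

omit [Finite G] in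
theorem layer_eq_bot_of_solvable {L : Subgroup G} (hs : Group.IsSolvable ↥L) :
    layer ↥L = ⊥ := by
  refine layer_eq_bot_iff.mpr fun K hK => ?_
  haveI := hs
  exact not_isSolvable_of_isQuasisimple hK.2
    (Group.isSolvable_of_isSolvable_injective (f := K.subtype) K.subtype_injective)

theorem eq_of_le_of_center_le [IsSimpleGroup G]
    (hsolv : ∀ L : Subgroup G, L ≠ ⊤ → Group.IsSolvable ↥L) {H : Subgroup G} (hH : IsCoatom H)
    (hF2 : 2 ≤ (Nat.card (fittingOf H)).primeFactors.card) {M : Subgroup G} (hMF : M ≤ fittingOf H)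
    (hZM : fittingOf H ⊓ Subgroup.centralizer (fittingOf H : Set G) ≤ M)
    (hinv : ∀ Y ∈ invSubgroups ⊤ M (primesNotDvd (Nat.card (fittingOf H))), Y = ⊥)
    {L : Subgroup G} (hL : IsCoatom L) (hML : M ≤ L) : L = H := by
  have hcardF : Nat.card ↥(fittingOf H) = Nat.card ↥(fittingSubgroup ↥H) :=
    Subgroup.card_map_of_injective H.subtype_injective
  have hHne : ∀ t : ℕ, t ∈ (Nat.card (fittingOf H)).primeFactors → pCore t ↥H ≠ ⊥ := fun t ht =>
    haveI := Fact.mk (Nat.prime_of_mem_primeFactors ht)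
    pCore_ne_bot_of_dvd (hcardF ▸ Nat.dvd_of_mem_primeFactors ht)
  have hZle : ∀ (t : ℕ) [Fact t.Prime],
      ((Subgroup.center ↥(pCore t ↥H)).map (pCore t ↥H).subtype).map H.subtype ≤ L := by
    intro t _
    rintro _ ⟨z, hz, rfl⟩
    refine hML (hZM ⟨⟨z, Constrained.pCore_le_fitting (p := t) (Subgroup.map_subtype_le _ hz), rfl⟩,
      Subgroup.mem_centralizer_iff.mpr ?_⟩)
    rintro _ ⟨f, hf, rfl⟩
    exact congrArg Subtype.val (commute_center_pCore hz hf).symm
  have hLpi : ∀ t : ℕ, t.Prime → pCore t ↥L ≠ ⊥ → t ∈ (Nat.card (fittingOf H)).primeFactors := by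
    intro t ht hne
    haveI := Fact.mk ht
    refine Nat.mem_primeFactors.mpr ⟨ht, ?_, Nat.card_pos.ne'⟩
    by_contra htF
    apply hne
    have hY := hinv ((pCore t ↥L).map L.subtype) ⟨le_top, fun s hs hd => ?_,
      hML.trans (le_normalizer_map_subtype L _)⟩
    · exact (Subgroup.map_eq_bot_iff_of_injective _ L.subtype_injective).mp hY
    obtain ⟨k, hk⟩ := IsPGroup.iff_card.mp
      ((Constrained.isPGroup_pCore (G := ↥L) (p := t)).map L.subtype)
    rw [hk] at hd
    exact (Nat.prime_dvd_prime_iff_eq hs ht).mp (hs.dvd_of_dvd_pow hd) ▸ ⟨ht, htF⟩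
  -- `F(L) ≤ H`
  have hFL : ∀ t : ℕ, t.Prime → (pCore t ↥L).map L.subtype ≤ H := by
    intro t ht
    haveI := Fact.mk ht
    by_cases hne : pCore t ↥L = ⊥
    · rw [hne, Subgroup.map_bot]; exact bot_le
    obtain ⟨r, hr, hrt⟩ := Finset.exists_mem_ne (by omega : 1 < (Nat.card (fittingOf H)).primeFactors.card) t
    haveI := Fact.mk (Nat.prime_of_mem_primeFactors hr)
    exact pCore_le_of_center_le hH (Ne.symm hrt) (hHne t (hLpi t ht hne)) (hHne r hr) (hZle t) (hZle r)
  have hLs := hsolv L hL.1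
  have hHs := hsolv H hH.1
  have hFit : ∀ {A : Subgroup G}, Group.IsSolvable ↥A →
      (generalizedFittingSubgroup ↥A).map A.subtype = (fittingSubgroup ↥A).map A.subtype := by
    intro A hA
    rw [generalizedFittingSubgroup, layer_eq_bot_of_solvable hA, bot_sup_eq]
  have hFLle : (fittingSubgroup ↥L).map L.subtype ≤ H := by
    rw [Constrained.fitting_eq_iSup_pCore, Subgroup.map_iSup]
    refine iSup_le fun t => ?_
    rw [Subgroup.map_iSup]
    exact iSup_le fun ht => hFL t ht
  have hFLne : (fittingSubgroup ↥L).map L.subtype ≠ ⊥ := by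
    intro e
    haveI := hLs
    have hLne : L ≠ ⊥ := by
      rintro rfl
      obtain ⟨r, hr⟩ := Finset.card_pos.mp (by omega : 0 < (Nat.card (fittingOf H)).primeFactors.card)
      haveI := Fact.mk (Nat.prime_of_mem_primeFactors hr)
      exact center_map_ne_bot (hHne r hr) (le_bot_iff.mp (hZle r))
    haveI : Nontrivial ↥L := (Subgroup.nontrivial_iff_ne_bot _).mpr hLne
    exact Constrained.fitting_ne_bot ((Subgroup.map_eq_bot_iff_of_injective _ L.subtype_injective).mp e)
  have hLH : leadsTo L H := ⟨_, hFLne, le_rfl, inf_le_left.trans ((hFit hLs).le.trans hFLle)⟩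
  -- every prime of `F(H)` divides `F(L)`
  have hcover : ∀ r ∈ (Nat.card (fittingOf H)).primeFactors, pCore r ↥L ≠ ⊥ := by
    intro r hr hbot
    haveI := Fact.mk (Nat.prime_of_mem_primeFactors hr)
    have hnd : ¬ r ∣ Nat.card ↥(fittingSubgroup ↥L) := fun hd => pCore_ne_bot_of_dvd hd hbot
    apply center_map_ne_bot (hHne r hr)
    rw [eq_bot_iff, ← pCore_inf_eq_bot_of_leadsTo hLH hnd]
    exact le_inf (Subgroup.map_mono (Subgroup.map_subtype_le _)) (hZle r)
  have hFHle : (fittingSubgroup ↥H).map H.subtype ≤ L := by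
    rw [Constrained.fitting_eq_iSup_pCore, Subgroup.map_iSup]
    refine iSup_le fun t => ?_
    rw [Subgroup.map_iSup]
    refine iSup_le fun ht => ?_
    haveI := Fact.mk ht
    by_cases hne : pCore t ↥H = ⊥
    · rw [hne, Subgroup.map_bot]; exact bot_le
    have htF : t ∈ (Nat.card (fittingOf H)).primeFactors := Nat.mem_primeFactors.mpr
      ⟨ht, hcardF ▸ dvd_of_pCore_ne_bot hne, Nat.card_pos.ne'⟩
    obtain ⟨r, hr, hrt⟩ := Finset.exists_mem_ne (by omega : 1 < (Nat.card (fittingOf H)).primeFactors.card) t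
    haveI := Fact.mk (Nat.prime_of_mem_primeFactors hr)
    have hc : ∀ (s : ℕ) [Fact s.Prime],
        ((Subgroup.center ↥(pCore s ↥L)).map (pCore s ↥L).subtype).map L.subtype ≤ H := fun s _ =>
      (Subgroup.map_mono ((Subgroup.map_subtype_le _).trans Constrained.pCore_le_fitting)).trans hFLle
    exact pCore_le_of_center_le hL (Ne.symm hrt) (hcover t htF) (hcover r hr) (hc t) (hc r)
  have hFHne : (fittingSubgroup ↥H).map H.subtype ≠ ⊥ := by
    intro e
    have : (Nat.card (fittingOf H)).primeFactors = ∅ := by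
      rw [show fittingOf H = (fittingSubgroup ↥H).map H.subtype from rfl, e, Subgroup.card_bot,
        Nat.primeFactors_one]
    rw [this, Finset.card_empty] at hF2
    omega
  have hHL : leadsTo H L := ⟨_, hFHne, le_rfl, inf_le_left.trans ((hFit hHs).le.trans hFHle)⟩
  rcases eq_or_charP_of_leadsTo hH hL hHL hLH with h | ⟨p, hp, hpH, -⟩
  · exact h.symm
  exfalso
  obtain ⟨r, hr, hrp⟩ := Finset.exists_mem_ne (by omega : 1 < (Nat.card (fittingOf H)).primeFactors.card) p
  haveI := Fact.mk hp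
  obtain ⟨k, hk⟩ := IsPGroup.iff_card.mp hpH
  have hd : r ∣ p ^ k := hk ▸ ((hcardF ▸ Nat.dvd_of_mem_primeFactors hr).trans
    (Subgroup.card_dvd_of_le fitting_le_generalizedFitting))
  exact hrp ((Nat.prime_dvd_prime_iff_eq (Nat.prime_of_mem_primeFactors hr) hp).mp
    ((Nat.prime_of_mem_primeFactors hr).dvd_of_dvd_pow hd))

end CfsgLib.Cores
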